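import Cfsg.Agent.N2.Cl.Sz.Mu

/-!
# N2, size lemma: the lower bound `|A| ≤ cA x ^ a` for every `a` (helper96)
-/

set_option autoImplicit false

namespace Cfsg.Agent.N2C.Sz

open Cfsg Cfsg.Agent.DS.Cl Module Matrix
open Cfsg.Agent.N2C.Cyc (cA)

/-- **lower bound** : `x ^ a` central -/
theorem card_le_cA {A K ι : Type} [Ring A] [Field K] [Finite K] [Fintype ι] [DecidableEq ι] (e : A ≃+* Matrix ι ι K) {a : ℕ}
    (ha : 0 < a) {x : A} (h : IsUnit x) (hx : x ^ a ∈ Subring.center A) : Nat.card A ≤ cA x ^ a := by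
  have : Finite A := Finite.of_equiv _ e.symm.toEquiv
  obtain ⟨p, _⟩ := CharP.exists K
  have hp := CharP.char_is_prime K p
  obtain ⟨k, m, hm, rfl⟩ := Nat.exists_eq_pow_mul_and_not_dvd ha.ne' p hp.ne_one
  have h1 : Nat.card A ≤ cA (x ^ p ^ k) ^ m := by
    obtain ⟨c, hc⟩ : e (x ^ (p ^ k * m)) ∈ Set.range (Matrix.scalar ι) := Matrix.mem_range_scalar_iff_commute_single'.2 fun i j => by
      obtain ⟨z, hz⟩ := e.surjective (Matrix.single i j 1)
      exact hz ▸ Commute.map (Subring.mem_center_iff.1 hx z) e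
    by_cases h1 : c = 0
    · rw [h1, map_zero, eq_comm, map_eq_zero_iff _ e.injective] at hc
      have := (isUnit_zero_iff.1 (hc ▸ h.pow _) |> subsingleton_of_zero_eq_one : Subsingleton A)
      exact (Finite.card_le_one_iff_subsingleton.2 this).trans (Nat.pow_pos (cA_pos _))
    exact card_le_cA_cop e (mt (CharP.cast_eq_zero_iff K p m).1 hm) h1 (by
      rw [← map_pow, ← pow_mul, ← hc, scalar_apply, smul_one_eq_diagonal])
  let R := Subring.centralizer ({x ^ p ^ k} : Set A)
  have h2 := card_le_cA_char (A := R) (k := k) hp (Subtype.ext (e.injective (by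
      rw [Subring.coe_natCast, map_natCast, Subring.coe_zero, map_zero, ← map_natCast (algebraMap K _), CharP.cast_eq_zero, map_zero])))
    (x := ⟨x, by rintro _ rfl; exact (Commute.refl x).pow_left _⟩) (Subring.mem_center_iff.2 fun y => Subtype.ext (y.2 _ rfl).symm)
  rw [pow_mul]
  refine h1.trans (Nat.pow_le_pow_left (le_trans ?_ (h2.trans (Nat.pow_le_pow_left ?_ _))) m)
  · exact Nat.card_le_card_of_injective (fun y => ⟨y.1, by rintro _ rfl; exact y.2.symm⟩) fun _ _ k => Subtype.ext (Subtype.mk.inj k)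
  · exact Nat.card_le_card_of_injective (fun y => ⟨y.1.1, congrArg Subtype.val y.2⟩) fun _ _ k =>
      Subtype.ext (Subtype.ext (Subtype.mk.inj k))

/-- the same for endomorphisms -/
theorem le_cA_End' {K V : Type} [Field K] [Finite K] [AddCommGroup V] [Module K V] [FiniteDimensional K V] {a : ℕ} (ha : 0 < a)
    {x : End K V} (h : IsUnit x) (hx : x ^ a ∈ Subring.center (End K V)) : Nat.card K ^ (finrank K V ^ 2) ≤ cA x ^ a :=
  (SB.C2.card_end K V).ge.trans (card_le_cA (LinearMap.toMatrixAlgEquiv (finBasis K V)).toRingEquiv ha h hx)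

end Cfsg.Agent.N2C.Sz
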